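import Cfsg.Agent.Lib.Helper65.OAsch.TW5
import Cfsg.Agent.Lib.Helper69.OAsch.O8
import Cfsg.Agent.Lib.Helper35.OAsch.TB1
import Cfsg.Agent.Lib.Helper35.OAsch.TB3
import Cfsg.Agent.Lib.Helper21.OAsch.TW1

set_option autoImplicit false

namespace Cfsg.Agent.Lib.Helper65.OAsch

open Cfsg Cfsg.Geo Matrix Cfsg.Agent.Lib.Helper13.Asch Cfsg.Agent.Lib.Helper21.Asch
  Cfsg.Agent.Lib.Helper21.OAsch
open scoped Kronecker MatrixGroups

variable {ι : Type} [Fintype ι] [DecidableEq ι] {F : Type*} [Field F] {Q : (ι → F) → F}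
  {G : Matrix ι ι F}

theorem stdT_transpose {k t : ℕ} (i : Fin t) (X : Matrix (Fin k) (Fin k) F) :
    (stdT i Xᵀ)ᵀ = stdT i X := by
  ext x y
  simp only [Matrix.transpose_apply, stdT]
  by_cases h : ∀ j, j ≠ i → x j = y j
  · rw [if_pos h, if_pos (fun j hj => (h j hj).symm)]
  · rw [if_neg h, if_neg (fun h' => h (fun j hj => (h' j hj).symm))]

theorem conj_reindex_injective {κ : Type} [Fintype κ] [DecidableEq κ] (e : ι ≃ κ) (P : GL ι F)
    {S S' : Matrix κ κ F}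
    (h : (P : Matrix ι ι F) * Matrix.reindex e.symm e.symm S * ((P⁻¹ : GL ι F) : Matrix ι ι F) =
      (P : Matrix ι ι F) * Matrix.reindex e.symm e.symm S' * ((P⁻¹ : GL ι F) : Matrix ι ι F)) :
    S = S' := by
  have h1 : Matrix.reindex e.symm e.symm S = Matrix.reindex e.symm e.symm S' := by
    have := congrArg (fun M => ((P⁻¹ : GL ι F) : Matrix ι ι F) * M * (P : Matrix ι ι F)) h
    simp only [mul_assoc] at this
    simpa [← mul_assoc] using this
  exact (Matrix.reindex e.symm e.symm).injective h1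

theorem gram_pure (hO : OData Q G) {k t : ℕ} (ht : 0 < t) (e : ι ≃ (Fin t → Fin k)) (P : GL ι F)
    (L : Fin t → Subgroup (GL ι F)) (hL : ∀ i, Iso G (L i))
    (henv : ∀ i, ∀ x, x ∈ env (L i) ↔ ∃ X, x = embT e P i X) :
    ∃ Γ : Fin t → GL (Fin k) F, Gp e P G = pureT (fun i => (Γ i : Matrix (Fin k) (Fin k) F)) := by
  obtain ⟨-, hdet⟩ := Cfsg.Agent.Lib.Helper35.OAsch.Gp_facts hO e P
  obtain ⟨u, hu⟩ : IsUnit (Gp e P G) := (Matrix.isUnit_iff_isUnit_det _).mpr hdet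
  have hui : ((u⁻¹ : GL (Fin t → Fin k) F) : Matrix (Fin t → Fin k) (Fin t → Fin k) F) =
      (Gp e P G)⁻¹ := by
    rw [Matrix.coe_units_inv, hu]
  obtain ⟨A, hA⟩ := Cfsg.Agent.Lib.Helper21.OAsch.pure_of_normalizes ht (u⁻¹ : GL (Fin t → Fin k) F)
    (by
      intro i X
      have hx : embT e P i Xᵀ ∈ env (L i) := (henv i _).mpr ⟨_, rfl⟩
      obtain ⟨Y, hY⟩ := (henv i _).mp
        ((Cfsg.Agent.Lib.Helper69.OAsch.adj_mem_cen hO (L i) (hL i)).1 _ hx)
      refine ⟨Y, ?_⟩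
      unfold embT at hY
      rw [Cfsg.Agent.Lib.Helper35.OAsch.adj_conj hO e P, stdT_transpose] at hY
      rw [inv_inv, hui, hu]
      exact conj_reindex_injective e P hY)
  refine ⟨fun i => (A i)⁻¹, ?_⟩
  have h1 : (u⁻¹ : GL (Fin t → Fin k) F) = pureG A := Units.ext hA
  have h2 : u = (pureG A)⁻¹ := by rw [← h1, inv_inv]
  rw [← hu, h2]
  rfl

end Cfsg.Agent.Lib.Helper65.OAsch
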