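import Cfsg.Agent.Lib.Helper21.OAsch.Defs2

set_option autoImplicit false

namespace Cfsg.Agent.Lib.Helper65.OAsch

open Cfsg Cfsg.Geo Matrix Cfsg.Agent.Lib.Helper13.Asch Cfsg.Agent.Lib.Helper21.Asch
  Cfsg.Agent.Lib.Helper21.OAsch
open scoped Kronecker MatrixGroups Pointwise

variable {ι : Type} [Fintype ι] [DecidableEq ι] {F : Type*} [Field F] {Q : (ι → F) → F}
  {G : Matrix ι ι F}

/-- the pure tensor of invertible matrices, as an invertible matrix -/
def pureG {k t : ℕ} (g : Fin t → GL (Fin k) F) : GL (Fin t → Fin k) F where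
  val := pureT (fun i => (g i : Matrix (Fin k) (Fin k) F))
  inv := pureT (fun i => ((g i)⁻¹ : GL (Fin k) F).1)
  val_inv := by
    rw [← pureT_mul, ← pureT_one]
    congr 1
    funext i
    simp
  inv_val := by
    rw [← pureT_mul, ← pureT_one]
    congr 1
    funext i
    simp

theorem pureG_mem {k t : ℕ} (g : Fin t → GL (Fin k) F) : pureG g ∈ tensorWreathStandard k t F :=
  Subgroup.subset_closure (Or.inl ⟨g, fun _ _ => rfl⟩)

theorem wreath_adjust {k t : ℕ} (e : ι ≃ (Fin t → Fin k)) (P : GL ι F) (g : Fin t → GL (Fin k) F) :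
    ∃ P' : GL ι F, tensorWreathSubgroup k t e P' = tensorWreathSubgroup k t e P ∧
      ∀ G : Matrix ι ι F, Gp e P' G = (pureT (fun i => (g i : Matrix (Fin k) (Fin k) F)))ᵀ * Gp e P G *
        pureT (fun i => (g i : Matrix (Fin k) (Fin k) F)) := by
  refine ⟨P * glReindex e.symm (pureG g), ?_, ?_⟩
  · unfold tensorWreathSubgroup
    set S := (tensorWreathStandard k t F).map (glReindex (F := F) e.symm).toMonoidHom with hS
    have hγ : glReindex e.symm (pureG g) ∈ S := ⟨pureG g, pureG_mem g, rfl⟩
    show MulAut.conj (P * glReindex e.symm (pureG g)) • S = MulAut.conj P • S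
    rw [map_mul, mul_smul, Subgroup.conj_smul_eq_self_of_mem hγ]
  · intro G
    have hR : ((glReindex e.symm (pureG g) : GL ι F) : Matrix ι ι F) =
        (pureT (fun i => (g i : Matrix (Fin k) (Fin k) F))).submatrix e e := rfl
    unfold Gp
    rw [Units.val_mul, hR, Matrix.transpose_mul, Matrix.reindex_apply, Matrix.reindex_apply]
    have h1 : ((pureT fun i => (g i : Matrix (Fin k) (Fin k) F)).submatrix e e)ᵀ *
        (P : Matrix ι ι F)ᵀ * G * ((P : Matrix ι ι F) *
          (pureT fun i => (g i : Matrix (Fin k) (Fin k) F)).submatrix e e) =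
        ((pureT fun i => (g i : Matrix (Fin k) (Fin k) F)).submatrix e e)ᵀ *
        ((P : Matrix ι ι F)ᵀ * G * (P : Matrix ι ι F)) *
          (pureT fun i => (g i : Matrix (Fin k) (Fin k) F)).submatrix e e := by
      simp only [mul_assoc]
    rw [h1, ← Matrix.submatrix_mul_equiv _ _ _ e.symm _, ← Matrix.submatrix_mul_equiv _ _ _ e.symm _,
      Matrix.transpose_submatrix, Matrix.submatrix_submatrix, Matrix.submatrix_submatrix]
    simp

end Cfsg.Agent.Lib.Helper65.OAsch
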